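-- Sub-project [PDER+] of OPAR (S5989): package [KA] (helper27).
import Mathlib
import Cfsg.Agent.Lib.Helper57.OPar.Defs

set_option autoImplicit false
set_option linter.unusedSectionVars false
open Matrix

namespace Cfsg.Agent.Lib.Helper27.OPar

open Cfsg.Agent.Lib.Helper57.OPar

universe u

section

variable {F : Type u} [Field F] {d h : ℕ}

theorem sh_mulVec_ka (hd : 2 * h ≤ d) (a : Fin d → F) (i : Fin d) :
    (sh F d h h *ᵥ a) i = if hi : i.val < h then a ⟨i.val + h, by omega⟩ else 0 := by
  simp only [Matrix.mulVec, dotProduct, sh, Matrix.of_apply]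
  by_cases hi : i.val < h
  · rw [dif_pos hi, Finset.sum_eq_single (⟨i.val + h, by omega⟩ : Fin d)]
    · rw [if_pos ⟨rfl, hi⟩, one_mul]
    · intro k _ hk
      rw [if_neg, zero_mul]
      intro hc
      exact hk (Fin.ext hc.1)
    · intro hc
      exact absurd (Finset.mem_univ _) hc
  · rw [dif_neg hi]
    apply Finset.sum_eq_zero
    intro k _
    rw [if_neg (fun hc => hi hc.2), zero_mul]

theorem shT_mulVec_ka (b : Fin d → F) (k : Fin d) :
    ((sh F d h h)ᵀ *ᵥ b) k =
      if hk : h ≤ k.val ∧ k.val < 2 * h then b ⟨k.val - h, by omega⟩ else 0 := by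
  simp only [Matrix.mulVec, dotProduct, sh, Matrix.transpose_apply, Matrix.of_apply]
  by_cases hk : h ≤ k.val ∧ k.val < 2 * h
  · rw [dif_pos hk, Finset.sum_eq_single (⟨k.val - h, by omega⟩ : Fin d)]
    · rw [if_pos ⟨by simp only []; omega, by simp only []; omega⟩, one_mul]
    · intro i _ hi
      rw [if_neg, zero_mul]
      intro hc
      apply hi
      apply Fin.ext
      simp only []
      omega
    · intro hc
      exact absurd (Finset.mem_univ _) hc
  · rw [dif_neg hk]
    apply Finset.sum_eq_zero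
    intro i _
    rw [if_neg, zero_mul]
    intro hc
    apply hk
    omega

theorem sh_mul_sh_ka : sh F d h h * sh F d h h = 0 := by
  ext i j
  rw [Matrix.mul_apply, Matrix.zero_apply]
  apply Finset.sum_eq_zero
  intro k _
  simp only [sh, Matrix.of_apply]
  by_cases h1 : k.val = i.val + h ∧ i.val < h
  · rw [if_pos h1, if_neg, mul_zero]
    intro hc
    omega
  · rw [if_neg h1, zero_mul]

theorem sh_ne_zero_ka (hh : 1 ≤ h) (hd : 2 * h ≤ d) : sh F d h h ≠ 0 := by
  intro h0
  have := congrFun (congrFun h0 ⟨0, by omega⟩) ⟨h, by omega⟩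
  rw [sh, Matrix.of_apply, if_pos ⟨by simp, by simp only []; omega⟩, Matrix.zero_apply] at this
  exact one_ne_zero this

theorem xM_sub_one_ka :
    xM (sh F d h h) - 1 = Matrix.fromBlocks (sh F d h h) 0 0 (-(sh F d h h)ᵀ) := by
  have hT : (sh F d h h)ᵀ * (sh F d h h)ᵀ = 0 := by
    rw [← Matrix.transpose_mul, sh_mul_sh_ka, Matrix.transpose_zero]
  rw [sub_eq_iff_eq_add]
  unfold xM
  rw [hT, add_zero]
  have h1 : (1 : Matrix (Fin d ⊕ Fin d) (Fin d ⊕ Fin d) F) = Matrix.fromBlocks 1 0 0 1 :=
    Matrix.fromBlocks_one.symm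
  rw [h1, Matrix.fromBlocks_add]
  congr 1
  · rw [add_comm]
  · rw [add_zero]
  · rw [add_zero]
  · rw [neg_add_eq_sub]

/-- The kernel of the block matrix. -/
theorem ker_ka (hd : 2 * h ≤ d) (v : Fin d ⊕ Fin d → F)
    (hv : Matrix.fromBlocks (sh F d h h) 0 0 (-(sh F d h h)ᵀ) *ᵥ v = 0) :
    (∀ i : Fin d, h ≤ i.val → i.val < 2 * h → v (Sum.inl i) = 0) ∧
    (∀ k : Fin d, k.val < h → v (Sum.inr k) = 0) := by
  rw [Matrix.fromBlocks_mulVec] at hv
  constructor
  · intro i hi1 hi2
    have := congrFun hv (Sum.inl ⟨i.val - h, by omega⟩)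
    rw [Sum.elim_inl, Pi.add_apply, Matrix.zero_mulVec, Pi.zero_apply, add_zero,
      sh_mulVec_ka hd, dif_pos (by simp only []; omega)] at this
    have e : (⟨i.val - h + h, by omega⟩ : Fin d) = i := Fin.ext (by simp only []; omega)
    simp only [Function.comp_apply] at this
    rw [e] at this
    exact this
  · intro k hk
    have := congrFun hv (Sum.inr ⟨k.val + h, by omega⟩)
    rw [Sum.elim_inr, Pi.add_apply, Matrix.zero_mulVec, Pi.zero_apply, zero_add,
      Matrix.neg_mulVec, Pi.neg_apply, shT_mulVec_ka,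
      dif_pos (by simp only []; omega)] at this
    have e : (⟨k.val + h - h, by omega⟩ : Fin d) = k := Fin.ext (by simp only []; omega)
    simp only [Function.comp_apply] at this
    rw [e] at this
    exact neg_eq_zero.mp this

/-- Vectors of the kernel with vanishing defect lie in the range. -/
theorem range_ka (hd : 2 * h ≤ d) (v : Fin d ⊕ Fin d → F)
    (hka : ∀ i : Fin d, h ≤ i.val → v (Sum.inl i) = 0)
    (hkb : ∀ k : Fin d, (k.val < h ∨ 2 * h ≤ k.val) → v (Sum.inr k) = 0) :
    ∃ u : Fin d ⊕ Fin d → F,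
      Matrix.fromBlocks (sh F d h h) 0 0 (-(sh F d h h)ᵀ) *ᵥ u = v := by
  refine ⟨Sum.elim
    (fun k : Fin d => if hk : h ≤ k.val ∧ k.val < 2 * h then v (Sum.inl ⟨k.val - h, by omega⟩)
      else 0)
    (fun i : Fin d => if hi : i.val < h then - v (Sum.inr ⟨i.val + h, by omega⟩) else 0), ?_⟩
  rw [Matrix.fromBlocks_mulVec]
  funext j
  rcases j with i | k
  · rw [Sum.elim_inl, Pi.add_apply, Matrix.zero_mulVec, Pi.zero_apply, add_zero,
      sh_mulVec_ka hd]
    by_cases hi : i.val < h
    · rw [dif_pos hi]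
      simp only [Function.comp_apply, Sum.elim_inl]
      rw [dif_pos (by omega)]
      congr 2
      apply Fin.ext
      simp only []
      omega
    · rw [dif_neg hi, hka i (by omega)]
  · rw [Sum.elim_inr, Pi.add_apply, Matrix.zero_mulVec, Pi.zero_apply, zero_add,
      Matrix.neg_mulVec, Pi.neg_apply, shT_mulVec_ka]
    by_cases hk : h ≤ k.val ∧ k.val < 2 * h
    · rw [dif_pos hk]
      simp only [Function.comp_apply, Sum.elim_inr]
      rw [dif_pos (by omega), neg_neg]
      congr 2
      apply Fin.ext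
      simp only []
      omega
    · rw [dif_neg hk, neg_zero, hkb k (by omega)]

end

/-- [KA] -/
theorem pkgKA : PkgKA.{u} := by
  intro F _ d h hh hd
  have hd2 : 2 * h ≤ d := by omega
  refine ⟨sh_mul_sh_ka, sh_ne_zero_ka hh hd2, ?_⟩
  rw [xM_sub_one_ka]
  rcases hd with hd | hd
  · -- `d = 2 h`: kernel = range
    refine ⟨0, ?_⟩
    intro v hv _
    obtain ⟨h1, h2⟩ := ker_ka hd2 v hv
    apply range_ka hd2 v
    · intro i hi
      exact h1 i hi (by have := i.2; omega)
    · intro k hk
      rcases hk with hk | hk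
      · exact h2 k hk
      · have := k.2; omega
  · -- `d = 2 h + 1`: the defect is given by the two last coordinates
    have hlast : 2 * h < d := by omega
    have hpos : 1 < 2 * (d - 2 * h) := by omega
    refine ⟨
      { toFun := fun v j => if j.val = 0 then v (Sum.inl ⟨2 * h, hlast⟩)
          else v (Sum.inr ⟨2 * h, hlast⟩)
        map_add' := by
          intro v w
          funext j
          simp only [Pi.add_apply]
          split_ifs <;> rfl
        map_smul' := by
          intro c v
          funext j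
          simp only [Pi.smul_apply, RingHom.id_apply]
          split_ifs <;> rfl }, ?_⟩
    intro v hv hφ
    obtain ⟨h1, h2⟩ := ker_ka hd2 v hv
    have ha : v (Sum.inl ⟨2 * h, hlast⟩) = 0 := by
      have := congrFun hφ ⟨0, by omega⟩
      simpa using this
    have hb : v (Sum.inr ⟨2 * h, hlast⟩) = 0 := by
      have := congrFun hφ ⟨1, hpos⟩
      simpa using this
    apply range_ka hd2 v
    · intro i hi
      by_cases hi2 : i.val < 2 * h
      · exact h1 i hi hi2
      · have e : i = ⟨2 * h, hlast⟩ := Fin.ext (by have := i.2; simp only []; omega)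
        rw [e]; exact ha
    · intro k hk
      rcases hk with hk | hk
      · exact h2 k hk
      · have e : k = ⟨2 * h, hlast⟩ := Fin.ext (by have := k.2; simp only []; omega)
        rw [e]; exact hb

end Cfsg.Agent.Lib.Helper27.OPar
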